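import Cfsg.Agent.CpAutTits.Known
import Cfsg.Agent.CpAutFive.Inv
import Cfsg.Agent.LThree.Red
import Cfsg.Agent.S0494

/-!
# S1814, `p = 5`: groups in which the centralizers of elements of order 5 have small Sylow 2-subgroups (helper26)

* `comps_five` : the only simple groups whose order divides `|C(x)| / 5` have order 60 ⟹ `Comps 5 (C(x))`.
-/

set_option autoImplicit false

namespace Cfsg.Agent.CpAutFive

open Subgroup Cfsg
open Cfsg.Agent.LThree (Comps)
open Cfsg.Agent.CpAut
open Cfsg.Agent.OrdDiv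

universe u

theorem comps_five (T : OrderTable.{u}) (hS : AllKnown.{u}) {H : Type u} [Group H] [Finite H]
    {x : H} (hx : orderOf x = 5) (hc : x ∈ center H) {l : List (ℕ × ℕ)} {N : ℕ}
    (hv : valid l N = true) (hd : Nat.card H ∣ N * 5) (h : ((cands l N).all fun g => Nat.beq (ordN g) 60) = true) :
    Comps 5 H := by
  intro K hK
  have hp : Nat.Prime 5 := by norm_num
  have := hK.2.2
  have h1 : Nat.card (↥K ⧸ center ↥K) ∣ N := by
    have h2 := (CpAutTits.Known.card_quot_mul_dvd hp hx hc K).trans hd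
    exact Nat.dvd_of_mul_dvd_mul_right hp.pos h2
  obtain ⟨g, hg, -, hcard⟩ := exists_good T (hS (↥K ⧸ center ↥K)) (CpAutTits.Known.quo_not_comm hK.2) hv h1
  have h60 : Nat.card (↥K ⧸ center ↥K) = 60 := by
    rw [hcard]
    exact Nat.eq_of_beq_eq_true (List.all_eq_true.1 h g hg)
  obtain ⟨e⟩ := S0494.result h60
  have hb : pPrimeCore 5 (H ⧸ pPrimeCore 5 H) = ⊥ := Lib.Cores.pPrimeCore_quotient_pPrimeCore 5
  refine ⟨hK.2, LThree.Red.isPGroup_center_comp hp hb hK.1, Or.inr (Or.inl ⟨5, Or.inl rfl, ⟨e⟩⟩), ?_⟩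
  rintro (⟨h2, -⟩ | ⟨h2, -⟩)
  · norm_num at h2
  · norm_num at h2

/-- **the row criterion** -/
theorem comps_centralizer (T : OrderTable.{u}) (hS : AllKnown.{u}) {X : Type u} [Group X] [Finite X]
    {x : X} (hx : orderOf x = 5) {l : List (ℕ × ℕ)} {N : ℕ}
    (hv : valid l N = true) (hd : Nat.card ↥(centralizer ({x} : Set X)) ∣ N * 5)
    (h : ((cands l N).all fun g => Nat.beq (ordN g) 60) = true) :
    Comps 5 ↥(centralizer ({x} : Set X)) := by
  have hmem : x ∈ centralizer ({x} : Set X) := mem_centralizer_singleton_iff.2 rfl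
  refine comps_five (x := (⟨x, hmem⟩ : ↥(centralizer ({x} : Set X)))) T hS ?_ ?_ hv hd h
  · rw [Subgroup.orderOf_mk]
    exact hx
  · rw [mem_center_iff]
    rintro ⟨y, hy⟩
    exact Subtype.ext (mem_centralizer_singleton_iff.1 hy)

/-- the row criterion from the centralizers of the involutions -/
theorem comps_centralizer' (T : OrderTable.{u}) (hS : AllKnown.{u}) {X : Type u} [Group X] [Finite X]
    {x : X} (hx : orderOf x = 5) {k e m : ℕ}
    (hinv : ∀ u : X, orderOf u = 2 → u * x = x * u →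
      ¬ 2 ^ (k + 1) ∣ Nat.card ↥(centralizer ({x} : Set X) ⊓ centralizer ({u} : Set X)))
    (hcard : Nat.card X ∣ 2 ^ e * m) {l : List (ℕ × ℕ)} {N : ℕ}
    (hv : valid l N = true) (hN : 2 ^ k * m = N * 5)
    (h : ((cands l N).all fun g => Nat.beq (ordN g) 60) = true) :
    Comps 5 ↥(centralizer ({x} : Set X)) := by
  refine comps_centralizer T hS hx hv ?_ h
  rw [← hN]
  exact dvd_of_not_dvd Nat.card_pos.ne' ((card_subgroup_dvd_card _).trans hcard)
    (not_dvd_centralizer (by omega) hinv)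

/-- the check for `J₂` -/
theorem chk_J2 : ((cands [(2, 2), (3, 3), (5, 1), (7, 1)] 3780).all fun g => Nat.beq (ordN g) 60) = true := by
  decide +kernel

end Cfsg.Agent.CpAutFive
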